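import Cfsg.Agent.H94.S460.J.J3.RChk0
import Cfsg.Agent.H94.S460.J.J3.RChk1

set_option autoImplicit false
set_option linter.all false

namespace Cfsg.Agent.H94.S460.J

open Cfsg.Agent.H35 Cfsg.Spor

theorem j3_rall : ∀ p, p < 3626 → j3_rf p = true := by
  apply allR_blocks j3_rf 3626 10 4 _ (by decide)
  intro k hk
  interval_cases k
  · exact j3_rchk_0
  · exact j3_rchk_1
  · exact j3_rchk_2
  · exact j3_rchk_3

theorem j3_circ_ok : circChk (fullW j3_rws j3_prels) j3_circT 0 j3_ccert = true := by decide +kernel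
theorem j3_hc_ok : allR (fun c => hcChk j3_rsw j3_hc1T j3_hc2T c) 4 2 0 = true := by decide +kernel
theorem j3_h0 : RData.aord (j3_rd.ent 0 1) = 0 := by decide +kernel

end Cfsg.Agent.H94.S460.J
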